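import Mathlib
import Cfsg.Prelude.Def_Characters
import Cfsg.Prelude.Def_Solvable
import Cfsg.Agent.H599.Arc
import Cfsg.Agent.Lib.NormalAbelian
import Cfsg.Agent.Lib.Cores
import Cfsg.Agent.Characters.DegreeBounds

/-!
# Linear groups of degree less than `2 p` with non-abelian Sylow `p`-subgroups

* `finrank_simul` : dimension of a simultaneous eigenspace of diagonal operators.
* `exists_conj` : transitivity on the weights of an abelian normal subgroup (Clifford).
* `dvd_finrank_eigenspace` : the determinant trick.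
* `main_struct` : S4471.
-/

set_option autoImplicit false

namespace Cfsg.Agent.H599.TwoP

open Module Cfsg.Agent.H599.Unitary Cfsg.Agent.H599.Arc

section diag

variable {ι I V : Type*} [AddCommGroup V] [Module ℂ V]

theorem repr_apply_eq (b : Basis ι ℂ V) (f : Module.End ℂ V) (l : ι → ℂ)
    (hb : ∀ i, f (b i) = l i • b i) (w : V) (i : ι) : b.repr (f w) i = l i * b.repr w i := by
  classical
  have h2 : ((Finsupp.lapply i).comp b.repr.toLinearMap).comp f =
      (l i) • ((Finsupp.lapply i).comp b.repr.toLinearMap) := by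
    refine b.ext fun j => ?_
    simp only [LinearMap.comp_apply, LinearMap.smul_apply, LinearEquiv.coe_coe, hb, map_smul,
      Basis.repr_self, Finsupp.lapply_apply, smul_eq_mul]
    by_cases hij : j = i
    · rw [hij]
    · rw [Finsupp.single_eq_of_ne (fun h => hij h.symm)]; simp
  have h3 := LinearMap.congr_fun h2 w
  simpa using h3

/-- A simultaneous eigenspace of operators which are diagonal in a basis. -/
theorem simul_eq_span [Fintype ι] (b : Basis ι ℂ V) (f : I → Module.End ℂ V) (l : ι → I → ℂ)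
    (hb : ∀ j i, f i (b j) = l j i • b j) (μ : I → ℂ) (W : Submodule ℂ V)
    (hW : ∀ v, v ∈ W ↔ ∀ i, f i v = μ i • v) :
    W = Submodule.span ℂ (Set.range fun j : {j // l j = μ} => b j) := by
  classical
  apply le_antisymm
  · intro v hv
    rw [hW] at hv
    have h1 : ∀ j, b.repr v j ≠ 0 → l j = μ := by
      intro j hj
      funext i
      have h2 := repr_apply_eq b (f i) (fun j => l j i) (fun j => hb j i) v j
      rw [hv i, map_smul, Finsupp.smul_apply, smul_eq_mul] at h2
      exact (mul_right_cancel₀ hj h2).symm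
    rw [← b.sum_repr v]
    refine Submodule.sum_mem _ fun j _ => ?_
    by_cases hj : b.repr v j = 0
    · rw [hj, zero_smul]
      exact Submodule.zero_mem _
    · exact Submodule.smul_mem _ _ (Submodule.subset_span ⟨⟨j, h1 j hj⟩, rfl⟩)
  · rw [Submodule.span_le]
    rintro _ ⟨⟨j, hj⟩, rfl⟩
    rw [SetLike.mem_coe, hW]
    intro i
    rw [hb, hj]

theorem finrank_simul [Fintype ι] [DecidableEq (I → ℂ)] (b : Basis ι ℂ V)
    (f : I → Module.End ℂ V) (l : ι → I → ℂ)
    (hb : ∀ j i, f i (b j) = l j i • b j) (μ : I → ℂ) (W : Submodule ℂ V)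
    (hW : ∀ v, v ∈ W ↔ ∀ i, f i v = μ i • v) :
    finrank ℂ W = (Finset.univ.filter (fun j => l j = μ)).card := by
  rw [simul_eq_span b f l hb μ W hW, finrank_span_eq_card, Fintype.card_subtype]
  exact b.linearIndependent.comp _ Subtype.val_injective

theorem finrank_eigen [Fintype ι] (b : Basis ι ℂ V) (f : Module.End ℂ V) (l : ι → ℂ)
    (hb : ∀ j, f (b j) = l j • b j) (a : ℂ) :
    finrank ℂ (Module.End.eigenspace f a) = (Finset.univ.filter (fun j => l j = a)).card := by
  classical
  rw [finrank_simul b (fun _ : Unit => f) (fun j _ => l j) (fun j _ => hb j) (fun _ => a)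
    (Module.End.eigenspace f a) (fun v => by
      rw [Module.End.mem_eigenspace_iff]
      exact ⟨fun h _ => h, fun h => h ()⟩)]
  congr 1
  ext j
  simp only [Finset.mem_filter, Finset.mem_univ, true_and]
  exact ⟨fun h => congrFun h (), fun h => funext fun _ => h⟩

end diag

section weights

variable {G : Type*} [Group G] {V : Type*} [AddCommGroup V] [Module ℂ V]
  (ρ : Representation ℂ G V) (N : Subgroup G)

/-- The weight space. -/
def wt (μ : N → ℂ) : Submodule ℂ V where
  carrier := {v | ∀ x : N, ρ x v = μ x • v}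
  add_mem' := by
    intro v w hv hw x
    rw [map_add, hv x, hw x, smul_add]
  zero_mem' := by
    intro x
    rw [map_zero, smul_zero]
  smul_mem' := by
    intro c v hv x
    rw [map_smul, hv x, smul_comm]

theorem mem_wt {μ : N → ℂ} {v : V} : v ∈ wt ρ N μ ↔ ∀ x : N, ρ x v = μ x • v := Iff.rfl

variable [hN : N.Normal]

/-- The conjugate weight. -/
def cj (g : G) (μ : N → ℂ) : N → ℂ := fun x => μ (MulAut.conjNormal g⁻¹ x)

theorem cj_one (μ : N → ℂ) : cj N 1 μ = μ := by
  funext x
  simp [cj]

theorem cj_mul (g h : G) (μ : N → ℂ) : cj N (g * h) μ = cj N g (cj N h μ) := by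
  funext x
  simp only [cj, mul_inv_rev, map_mul, MulAut.mul_apply]

variable {ρ N}

theorem apply_mem_wt {μ : N → ℂ} {v : V} (hv : v ∈ wt ρ N μ) (g : G) :
    ρ g v ∈ wt ρ N (cj N g μ) := by
  intro x
  have h1 := hv (MulAut.conjNormal g⁻¹ x)
  have h2 : ((MulAut.conjNormal g⁻¹ x : N) : G) = g⁻¹ * x * g := by
    rw [MulAut.conjNormal_apply, inv_inv]
  rw [h2] at h1
  have h3 : ρ x (ρ g v) = ρ g (ρ (g⁻¹ * x * g) v) := by
    rw [← Module.End.mul_apply, ← map_mul, ← Module.End.mul_apply, ← map_mul]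
    congr 2
    group
  rw [h3, h1, map_smul]
  rfl

theorem finrank_wt_cj [FiniteDimensional ℂ V] (μ : N → ℂ) (g : G) :
    finrank ℂ (wt ρ N (cj N g μ)) = finrank ℂ (wt ρ N μ) := by
  have hle : ∀ (ν : N → ℂ) (h : G), finrank ℂ (wt ρ N ν) ≤ finrank ℂ (wt ρ N (cj N h ν)) := by
    intro ν h
    have hinj : Function.Injective (ρ h) := by
      intro v w hvw
      have h1 : ρ h⁻¹ (ρ h v) = ρ h⁻¹ (ρ h w) := by rw [hvw]
      rwa [← Module.End.mul_apply, ← Module.End.mul_apply, ← map_mul, inv_mul_cancel, map_one,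
        Module.End.one_apply, Module.End.one_apply] at h1
    rw [LinearEquiv.finrank_eq (Submodule.equivMapOfInjective (ρ h) hinj (wt ρ N ν))]
    apply Submodule.finrank_mono
    rintro _ ⟨v, hv, rfl⟩
    exact apply_mem_wt hv h
  apply le_antisymm _ (hle μ g)
  have h1 := hle (cj N g μ) g⁻¹
  rwa [← cj_mul, inv_mul_cancel, cj_one] at h1

variable {ι : Type*} [Fintype ι] {b : Basis ι ℂ V} {l : ι → N → ℂ}

omit [Fintype ι] in
theorem exists_conj [FiniteDimensional ℂ V] [ρ.IsIrreducible]
    (hb : ∀ j (x : N), ρ x (b j) = l j x • b j) (i j : ι) : ∃ g, l j = cj N g (l i) := by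
  classical
  by_contra hcon
  push Not at hcon
  let U : Submodule ℂ V := ⨆ g : G, wt ρ N (cj N g (l i))
  have hUstab : ∀ g, ∀ u ∈ U, ρ g u ∈ U := by
    intro g u hu
    have h1 : U.map (ρ g) ≤ U := by
      rw [Submodule.map_iSup]
      refine iSup_le fun h => ?_
      refine le_trans ?_ (le_iSup _ (g * h))
      rintro _ ⟨v, hv, rfl⟩
      have := apply_mem_wt hv g
      rwa [← cj_mul] at this
    exact h1 ⟨u, hu, rfl⟩
  have hU0 : U ≠ ⊥ := by
    intro h
    have h1 : b i ∈ U := by
      have h2 : b i ∈ wt ρ N (cj N 1 (l i)) := by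
        rw [cj_one]
        intro x
        exact hb i x
      exact (le_iSup (fun g : G => wt ρ N (cj N g (l i))) 1) h2
    rw [h, Submodule.mem_bot] at h1
    exact b.ne_zero i h1
  have hUtop : U = ⊤ :=
    Cfsg.Agent.Characters.DegreeBounds.eq_top_of_stable ρ U hUstab hU0
  have hker : U ≤ LinearMap.ker (b.coord j) := by
    refine iSup_le fun g => ?_
    intro v hv
    rw [LinearMap.mem_ker, Basis.coord_apply]
    by_contra hne
    apply hcon g
    funext x
    have h2 := repr_apply_eq b (ρ x) (fun j => l j x) (fun j => hb j x) v j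
    rw [hv x, map_smul, Finsupp.smul_apply, smul_eq_mul] at h2
    exact (mul_right_cancel₀ hne h2).symm
  have h1 : b j ∈ LinearMap.ker (b.coord j) := hker (hUtop ▸ Submodule.mem_top)
  rw [LinearMap.mem_ker, Basis.coord_apply, Basis.repr_self, Finsupp.single_eq_same] at h1
  exact one_ne_zero h1

/-- All weights have the same multiplicity. -/
theorem mult_eq [FiniteDimensional ℂ V] [ρ.IsIrreducible] [DecidableEq (N → ℂ)]
    (hb : ∀ j (x : N), ρ x (b j) = l j x • b j) (i j : ι) :
    (Finset.univ.filter (fun k => l k = l j)).card =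
      (Finset.univ.filter (fun k => l k = l i)).card := by
  obtain ⟨g, hg⟩ := exists_conj hb i j
  rw [← finrank_simul b (fun x : N => ρ x) l hb (l j) (wt ρ N (l j)) (fun v => mem_wt ρ N),
    ← finrank_simul b (fun x : N => ρ x) l hb (l i) (wt ρ N (l i)) (fun v => mem_wt ρ N), hg,
    finrank_wt_cj]

theorem mult_dvd [FiniteDimensional ℂ V] [ρ.IsIrreducible] [DecidableEq (N → ℂ)]
    (hb : ∀ j (x : N), ρ x (b j) = l j x • b j) (i : ι) (P : (N → ℂ) → Prop)
    [DecidablePred P] :
    (Finset.univ.filter (fun k => l k = l i)).card ∣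
      (Finset.univ.filter (fun k => P (l k))).card := by
  rw [Finset.card_eq_sum_card_image l (Finset.univ.filter (fun k => P (l k)))]
  refine Finset.dvd_sum fun μ hμ => ?_
  obtain ⟨j, hj, rfl⟩ := Finset.mem_image.1 hμ
  have hPj : P (l j) := (Finset.mem_filter.1 hj).2
  have h1 : Finset.filter (fun k => l k = l j) (Finset.univ.filter (fun k => P (l k))) =
      Finset.univ.filter (fun k => l k = l j) := by
    ext k
    simp only [Finset.mem_filter, Finset.mem_univ, true_and]
    exact ⟨fun h => h.2, fun h => ⟨h ▸ hPj, h⟩⟩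
  rw [h1, mult_eq hb i j]

end weights

section det

/-- The determinant trick: a central element of the commutator subgroup has determinant one on
each of its eigenspaces. -/
theorem dvd_finrank_eigenspace {Q : Type*} [Group Q] {V : Type*} [AddCommGroup V] [Module ℂ V]
    [FiniteDimensional ℂ V] (ρ : Representation ℂ Q V) {z : Q} (hz : z ∈ commutator Q)
    (hc : z ∈ Subgroup.center Q) {p : ℕ} (hp : p.Prime) (hzp : z ^ p = 1) {a : ℂ} (ha : a ≠ 1) :
    p ∣ finrank ℂ (Module.End.eigenspace (ρ z) a) := by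
  classical
  let W : Submodule ℂ V := Module.End.eigenspace (ρ z) a
  have hWmem : ∀ v, v ∈ W ↔ ρ z v = a • v := fun v => Module.End.mem_eigenspace_iff
  by_cases hW : W = ⊥
  · change p ∣ finrank ℂ W
    rw [hW, finrank_bot]
    exact dvd_zero _
  have hstab : ∀ g, ∀ v ∈ W, ρ g v ∈ W := by
    intro g v hv
    rw [hWmem] at hv ⊢
    have h1 : ρ z (ρ g v) = ρ g (ρ z v) := by
      rw [← Module.End.mul_apply, ← map_mul, ← Subgroup.mem_center_iff.1 hc g, map_mul,
        Module.End.mul_apply]
    rw [h1, hv, map_smul]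
  let σ : Q →* Module.End ℂ W :=
    { toFun := fun g => (ρ g).restrict (hstab g)
      map_one' := by
        ext v
        simp
      map_mul' := by
        intro g h
        ext v
        simp }
  let δ : Q →* ℂ := (LinearMap.det : Module.End ℂ W →* ℂ).comp σ
  have h1 : z ∈ (δ.toHomUnits).ker := Abelianization.commutator_subset_ker _ hz
  have h2 : δ z = 1 := by
    have := congrArg Units.val ((MonoidHom.mem_ker).1 h1)
    simpa using this
  have h3 : σ z = a • (1 : Module.End ℂ W) := by
    ext v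
    show ρ z (v : V) = a • (v : V)
    exact (hWmem _).1 v.2
  have h4 : a ^ finrank ℂ W = 1 := by
    have h5 : δ z = LinearMap.det (σ z) := rfl
    rw [h5, h3, LinearMap.det_smul, map_one, mul_one] at h2
    exact h2
  have h5 : a ^ p = 1 := by
    obtain ⟨v, hv, hv0⟩ := (Submodule.ne_bot_iff W).1 hW
    have h6 : ∀ k : ℕ, (ρ z ^ k) v = a ^ k • v := by
      intro k
      induction k with
      | zero => simp
      | succ k ih =>
        rw [pow_succ', Module.End.mul_apply, ih, map_smul, (hWmem v).1 hv, smul_smul, pow_succ]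
    have h7 := h6 p
    rw [← map_pow, hzp, map_one, Module.End.one_apply] at h7
    have h8 : (a ^ p - 1) • v = 0 := by rw [sub_smul, one_smul, ← h7, sub_self]
    rcases smul_eq_zero.1 h8 with h | h
    · exact sub_eq_zero.1 h
    · exact absurd h hv0
  have := Fact.mk hp
  have h6 : orderOf a = p := orderOf_eq_prime h5 ha
  rw [← h6]
  exact orderOf_dvd_of_pow_eq_one h4

end det

section main

variable {G : Type*} [Group G] [Finite G] {V : Type*} [AddCommGroup V] [Module ℂ V]
  [FiniteDimensional ℂ V] {E : Type*} [NormedAddCommGroup E] [InnerProductSpace ℂ E]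
  {ρ : Representation ℂ G V} {φ : V →ₗ[ℂ] E}

/-- The normal closure of an element with exactly two eigenvalues `1`, `w` at distance less than
`1` is abelian. -/
theorem normalClosure_comm (h : Inv ρ φ) (hρ : Function.Injective ρ) {z : G} {w : ℂ}
    (hw : ‖w - 1‖ < 1) (hz : ∀ (a : ℂ) (v : V), v ≠ 0 → ρ z v = a • v → a = 1 ∨ a = w) :
    ∀ x ∈ Subgroup.normalClosure {z}, ∀ y ∈ Subgroup.normalClosure {z}, x * y = y * x := by
  have hconj : ∀ (g : G) (a : ℂ) (v : V), v ≠ 0 → ρ (g * z * g⁻¹) v = a • v → a = 1 ∨ a = w := by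
    intro g a v hv hav
    refine hz a (ρ g⁻¹ v) ?_ ?_
    · intro h0
      apply hv
      have : ρ g (ρ g⁻¹ v) = v := by
        rw [← Module.End.mul_apply, ← map_mul, mul_inv_cancel, map_one, Module.End.one_apply]
      rw [← this, h0, map_zero]
    · have : ρ z (ρ g⁻¹ v) = ρ g⁻¹ (ρ (g * z * g⁻¹) v) := by
        rw [← Module.End.mul_apply, ← map_mul, ← Module.End.mul_apply, ← map_mul]
        congr 2
        group
      rw [this, hav, map_smul]
  have hnorm : ∀ g : G, ∀ v, ‖φ (ρ (g * z * g⁻¹) v - ((1 + w) / 2) • v)‖ ≤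
      (‖w - 1‖ / 2) * ‖φ v‖ := by
    intro g
    refine eigen_norm_sub_le h _ _ _ (by positivity) fun a v hv hav => ?_
    rcases hconj g a v hv hav with rfl | rfl
    · have : (1 : ℂ) - (1 + w) / 2 = -((w - 1) / 2) := by ring
      rw [this, norm_neg, norm_div]
      simp
    · have : a - (1 + a) / 2 = (a - 1) / 2 := by ring
      rw [this, norm_div]
      simp
  have hnorm1 : ∀ g : G, ∀ v, ‖φ (ρ (g * z * g⁻¹) v - v)‖ ≤ ‖w - 1‖ * ‖φ v‖ := by
    intro g v
    have := eigen_norm_sub_le h (g * z * g⁻¹) 1 ‖w - 1‖ (by positivity) (fun a v hv hav => by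
      rcases hconj g a v hv hav with rfl | rfl
      · simp
      · exact le_rfl) v
    rwa [one_smul] at this
  have hsq : (1 : ℝ) < √2 := by
    rw [Real.lt_sqrt (by norm_num)]; norm_num
  have hcc : ∀ g k : G, (g * z * g⁻¹) * (k * z * k⁻¹) = (k * z * k⁻¹) * (g * z * g⁻¹) := by
    intro g k
    exact comm_of_near h hρ (by positivity) (by linarith) (hnorm g) (norm_nonneg _)
      (by linarith) (hnorm1 k)
  have hgen : ∀ x ∈ Group.conjugatesOfSet {z}, ∃ g : G, x = g * z * g⁻¹ := by
    intro x hx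
    rw [Group.mem_conjugatesOfSet_iff] at hx
    obtain ⟨a, ha, hax⟩ := hx
    rw [Set.mem_singleton_iff.1 ha] at hax
    obtain ⟨c, hc⟩ := isConj_iff.1 hax
    exact ⟨c, hc.symm⟩
  intro x hx y hy
  rw [Subgroup.normalClosure] at hx hy
  have h1 : Subgroup.closure (Group.conjugatesOfSet {z}) ≤
      Subgroup.centralizer (Group.conjugatesOfSet {z}) := by
    rw [Subgroup.closure_le]
    intro a ha
    rw [SetLike.mem_coe, Subgroup.mem_centralizer_iff]
    intro b hb
    obtain ⟨g, rfl⟩ := hgen a ha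
    obtain ⟨k, rfl⟩ := hgen b hb
    exact hcc k g
  have h2 : Subgroup.closure (Group.conjugatesOfSet {z}) ≤
      Subgroup.centralizer (Subgroup.closure (Group.conjugatesOfSet {z}) : Set G) := by
    rw [Subgroup.closure_le]
    intro a ha
    rw [SetLike.mem_coe, Subgroup.mem_centralizer_iff]
    intro b hb
    exact ((Subgroup.mem_centralizer_iff.1 (h1 hb)) a ha).symm
  exact (Subgroup.mem_centralizer_iff.1 (h2 hy)) x hx

theorem norm_exp_sub_one_lt {p : ℕ} (h7 : 7 ≤ p) :
    ‖Complex.exp (2 * Real.pi * Complex.I / p) - 1‖ < 1 := by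
  have hpi := Real.pi_pos
  have hp : (7 : ℝ) ≤ p := by exact_mod_cast h7
  have h1 : (2 * Real.pi * Complex.I / p : ℂ) = ((2 * Real.pi / p : ℝ) : ℂ) * Complex.I := by
    push_cast
    ring
  have h2 : ‖Complex.exp (2 * Real.pi * Complex.I / p) - 1‖ ^ 2 < 1 ^ 2 := by
    rw [h1, Complex.sq_norm, Complex.normSq_apply]
    simp only [Complex.sub_re, Complex.one_re, Complex.sub_im, Complex.one_im, sub_zero,
      Complex.exp_ofReal_mul_I_re, Complex.exp_ofReal_mul_I_im]
    have h3 := Real.sin_sq_add_cos_sq (2 * Real.pi / p)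
    have h4 : 1 / 2 < Real.cos (2 * Real.pi / p) := by
      rw [← Real.cos_pi_div_three]
      apply Real.cos_lt_cos_of_nonneg_of_le_pi (by positivity) (by linarith)
      rw [div_lt_div_iff₀ (by linarith) (by norm_num)]
      nlinarith
    nlinarith
  exact (pow_lt_pow_iff_left₀ (norm_nonneg _) (by norm_num) two_ne_zero).1 h2

omit [FiniteDimensional ℂ V] in
/-- If all weights of the abelian normal subgroup `N` are different then `p²` divides
`[G : O_p(G)]` only if it divides `n!`. -/
theorem index_pCore {n : ℕ} (hρ : Function.Injective ρ) (N : Subgroup G) [N.Normal]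
    (b : Basis (Fin n) ℂ V) (l : Fin n → N → ℂ)
    (hb : ∀ j (x : N), ρ x (b j) = l j x • b j) [ρ.IsIrreducible]
    (hinj : Function.Injective l) {p : ℕ} (hp : p.Prime)
    (hdvd : p ^ 2 ∣ (Cfsg.pCore p G).index) : p ^ 2 ∣ n.factorial := by
  classical
  have := Fact.mk hp
  -- the action on the weights
  have hcj : ∀ (g : G) (i : Fin n), ∃ j, l j = cj N g (l i) := by
    intro g i
    -- the line `ρ g (b i)` is a weight vector
    have h1 : ρ g (b i) ∈ wt ρ N (cj N g (l i)) := apply_mem_wt (fun x => hb i x) g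
    have h2 : ρ g (b i) ≠ 0 := by
      intro h0
      apply b.ne_zero i
      have : ρ g⁻¹ (ρ g (b i)) = b i := by
        rw [← Module.End.mul_apply, ← map_mul, inv_mul_cancel, map_one, Module.End.one_apply]
      rw [← this, h0, map_zero]
    by_contra hcon
    push Not at hcon
    apply h2
    have h3 := simul_eq_span b (fun x : N => ρ x) l hb (cj N g (l i))
      (wt ρ N (cj N g (l i))) (fun v => mem_wt ρ N)
    rw [h3] at h1
    have h4 : Set.range (fun j : {j // l j = cj N g (l i)} => b j) = ∅ := by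
      rw [Set.range_eq_empty_iff]
      exact ⟨fun j => hcon j.1 j.2⟩
    rw [h4, Submodule.span_empty, Submodule.mem_bot] at h1
    exact h1
  let Λ : Type _ := Set.range l
  let act : G → Λ → Λ := fun g μ => ⟨cj N g μ.1, by
    obtain ⟨i, hi⟩ := μ.2
    obtain ⟨j, hj⟩ := hcj g i
    exact ⟨j, by rw [hj, hi]⟩⟩
  have hact1 : ∀ μ, act 1 μ = μ := fun μ => Subtype.ext (cj_one N μ.1)
  have hactm : ∀ g h μ, act (g * h) μ = act g (act h μ) := fun g h μ =>
    Subtype.ext (cj_mul N g h μ.1)
  let θ : G →* Equiv.Perm Λ :=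
    { toFun := fun g =>
        { toFun := act g
          invFun := act g⁻¹
          left_inv := fun μ => by rw [← hactm, inv_mul_cancel, hact1]
          right_inv := fun μ => by rw [← hactm, mul_inv_cancel, hact1] }
      map_one' := Equiv.ext fun μ => hact1 μ
      map_mul' := fun g h => Equiv.ext fun μ => hactm g h μ }
  have hΛ : Nat.card Λ = n := by
    rw [Nat.card_congr (Equiv.ofInjective l hinj).symm, Nat.card_eq_fintype_card,
      Fintype.card_fin]
  have : Finite Λ := Set.finite_range l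
  let K : Subgroup G := θ.ker
  have hKidx : K.index ∣ n.factorial := by
    have h1 : K.index = Nat.card θ.range := Subgroup.index_ker θ
    rw [h1]
    refine (Subgroup.card_subgroup_dvd_card θ.range).trans ?_
    rw [Nat.card_perm, hΛ]
  have hKmem : ∀ g ∈ K, ∀ j, cj N g (l j) = l j := by
    intro g hg j
    have h1 : θ g = 1 := hg
    have h2 := congrArg (fun e : Equiv.Perm Λ => (e ⟨l j, ⟨j, rfl⟩⟩).1) h1
    exact h2
  have hKdiag : ∀ g ∈ K, ∀ j, ∃ c : ℂ, ρ g (b j) = c • b j := by
    intro g hg j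
    have h1 : ρ g (b j) ∈ wt ρ N (l j) := by
      have := apply_mem_wt (ρ := ρ) (N := N) (μ := l j) (fun x => hb j x) g
      rwa [hKmem g hg j] at this
    have h3 := simul_eq_span b (fun x : N => ρ x) l hb (l j)
      (wt ρ N (l j)) (fun v => mem_wt ρ N)
    rw [h3] at h1
    have h4 : Set.range (fun k : {k // l k = l j} => b k) ⊆ {b j} := by
      rintro _ ⟨⟨k, hk⟩, rfl⟩
      have hkj : k = j := hinj hk
      subst hkj
      rfl
    have h5 := Submodule.span_mono (R := ℂ) h4 h1
    obtain ⟨c, hc⟩ := Submodule.mem_span_singleton.1 h5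
    exact ⟨c, hc.symm⟩
  have hKcomm : ∀ g ∈ K, ∀ h ∈ K, g * h = h * g := by
    intro g hg h hh
    apply hρ
    rw [map_mul, map_mul]
    refine b.ext fun j => ?_
    obtain ⟨c, hc⟩ := hKdiag g hg j
    obtain ⟨d, hd⟩ := hKdiag h hh j
    rw [Module.End.mul_apply, Module.End.mul_apply, hc, hd, map_smul, map_smul, hc, hd,
      smul_comm]
  have hKn : K.Normal := MonoidHom.normal_ker θ
  -- `O_p(K)` has index prime to `p` in `K`
  have hsyl : ¬ p ∣ (Cfsg.pCore p K).index := by
    obtain ⟨S⟩ := (inferInstance : Nonempty (Sylow p K))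
    have hSn : (S : Subgroup K).Normal := by
      constructor
      intro x hx g
      have : g * x * g⁻¹ = x := by
        have h1 : g * x = x * g := Subtype.ext (hKcomm g g.2 x x.2)
        rw [h1, mul_inv_cancel_right]
      rwa [this]
    have h1 : (S : Subgroup K) ≤ Cfsg.pCore p K := Cfsg.Agent.Lib.Cores.le_pCore hSn S.isPGroup'
    intro h2
    exact S.not_dvd_index (h2.trans (Subgroup.index_dvd_of_le h1))
  have hmap := Cfsg.Agent.Lib.Cores.map_subtype_pCore p hKn
  have h1 : (K ⊓ Cfsg.pCore p G).index = (Cfsg.pCore p K).index * K.index := by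
    rw [← hmap, Subgroup.index_map_subtype]
  have h2 : p ^ 2 ∣ (Cfsg.pCore p K).index * K.index := by
    rw [← h1]
    exact hdvd.trans (Subgroup.index_dvd_of_le inf_le_right)
  have h3 : (p ^ 2).Coprime (Cfsg.pCore p K).index :=
    Nat.Coprime.pow_left 2 ((Nat.Prime.coprime_iff_not_dvd hp).2 hsyl)
  exact (h3.dvd_of_dvd_mul_left h2).trans hKidx

theorem not_sq_dvd_factorial {p n : ℕ} (hp : p.Prime) (h2 : 2 ≤ p) (hn : n < 2 * p) :
    ¬ p ^ 2 ∣ n.factorial := by
  intro h
  rw [Nat.Prime.pow_dvd_factorial_iff hp (b := 2)] at h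
  · rw [show Finset.Ico 1 2 = {1} from rfl, Finset.sum_singleton, pow_one] at h
    have : n / p < 2 := Nat.div_lt_of_lt_mul (by omega)
    omega
  · apply Nat.log_lt_of_lt_pow'
    · norm_num
    · calc n < 2 * p := hn
        _ ≤ p ^ 2 := by nlinarith

/-- The first part of S4471. -/
theorem main_struct {n : ℕ} (ρ : Representation ℂ G (Fin n → ℂ)) [ρ.IsIrreducible]
    (hρ : Function.Injective ρ) {p : ℕ} (hp : p.Prime) (h7 : 7 ≤ p) (hn : n < 2 * p)
    (hnp : n ≠ p) (Q : Subgroup G) (hQ : IsPGroup p Q)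
    (hna : ∃ x ∈ Q, ∃ y ∈ Q, x * y ≠ y * x) : ¬ p ^ 2 ∣ (Cfsg.pCore p G).index := by
  classical
  have := Fact.mk hp
  -- an element of order `p` in `Q' ∩ Z(Q)`
  have : Group.IsNilpotent Q := hQ.isNilpotent
  have hD : commutator Q ≠ ⊥ := by
    intro h
    obtain ⟨x, hx, y, hy, hxy⟩ := hna
    apply hxy
    have h1 := (commutator_eq_bot_iff_center_eq_top _).1 h
    have h2 : (⟨x, hx⟩ : Q) ∈ Subgroup.center Q := by rw [h1]; trivial
    exact (congrArg Subtype.val (Subgroup.mem_center_iff.1 h2 ⟨y, hy⟩)).symm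
  have hD2 := Cfsg.Agent.Lib.NormalAbelian.normal_inf_center_ne_bot (commutator Q) hD
  obtain ⟨z₀, hz₀, hz₀1⟩ : ∃ z ∈ commutator Q ⊓ Subgroup.center Q, orderOf z = p := by
    have h1 : Nontrivial (commutator Q ⊓ Subgroup.center Q : Subgroup Q) :=
      (Subgroup.nontrivial_iff_ne_bot _).2 hD2
    have h2 : IsPGroup p (commutator Q ⊓ Subgroup.center Q : Subgroup Q) := hQ.to_subgroup _
    have h3 : p ∣ Nat.card (commutator Q ⊓ Subgroup.center Q : Subgroup Q) := by
      obtain ⟨k, hk0, hk⟩ := (IsPGroup.nontrivial_iff_card h2).1 h1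
      rw [hk]
      exact dvd_pow_self p hk0.ne'
    obtain ⟨z, hz⟩ := exists_prime_orderOf_dvd_card' p h3
    exact ⟨z, z.2, by rw [Subgroup.orderOf_coe, hz]⟩
  -- the primitive root
  set w : ℂ := Complex.exp (2 * Real.pi * Complex.I / p) with hw
  have hwprim : IsPrimitiveRoot w p := Complex.isPrimitiveRoot_exp p hp.ne_zero
  have hw1 : w ≠ 1 := hwprim.ne_one hp.one_lt
  let σ : Representation ℂ Q (Fin n → ℂ) := ρ.comp Q.subtype
  have hσ : ∀ g, σ g = ρ (g : G) := fun g => rfl
  -- choose a power with eigenvalue `w`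
  obtain ⟨z, hzD, hzC, hzp, hzw⟩ : ∃ z : Q, z ∈ commutator Q ∧ z ∈ Subgroup.center Q ∧
      z ^ p = 1 ∧ ∃ v : Fin n → ℂ, v ≠ 0 ∧ σ z v = w • v := by
    obtain ⟨b, l, hb⟩ := exists_eigenbasis ρ (z₀ : G)
    obtain ⟨j, hj⟩ : ∃ j, l j ≠ 1 := by
      by_contra hcon
      push Not at hcon
      have h1 : ρ (z₀ : G) = 1 := by
        refine b.ext fun j => ?_
        rw [hb, hcon, one_smul, Module.End.one_apply]
      have h2 : (z₀ : G) = 1 := hρ (by rw [h1, map_one])
      have h3 : z₀ = 1 := Subtype.ext h2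
      rw [h3, orderOf_one] at hz₀1
      exact hp.one_lt.ne hz₀1
    have hpow : ∀ k : ℕ, (ρ (z₀ : G) ^ k) (b j) = l j ^ k • b j := by
      intro k
      induction k with
      | zero => simp
      | succ k ih =>
        rw [pow_succ', Module.End.mul_apply, ih, map_smul, hb, smul_smul, pow_succ]
    have hz₀p : z₀ ^ p = 1 := by rw [← hz₀1]; exact pow_orderOf_eq_one z₀
    have hz₀p' : (z₀ : G) ^ p = 1 := by
      have := congrArg Subtype.val hz₀p
      simpa using this
    have hlp : l j ^ p = 1 := by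
      have h7 := hpow p
      rw [← map_pow, hz₀p', map_one, Module.End.one_apply] at h7
      have h8 : (l j ^ p - 1) • b j = 0 := by rw [sub_smul, one_smul, ← h7, sub_self]
      rcases smul_eq_zero.1 h8 with h | h
      · exact sub_eq_zero.1 h
      · exact absurd h (b.ne_zero j)
    have hlprim : IsPrimitiveRoot (l j) p := by
      have := orderOf_eq_prime hlp hj
      rw [← this]
      exact IsPrimitiveRoot.orderOf _
    obtain ⟨k, _, hk⟩ := hlprim.eq_pow_of_pow_eq_one (ξ := w) hwprim.pow_eq_one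
    refine ⟨z₀ ^ k, Subgroup.pow_mem _ hz₀.1 k, Subgroup.pow_mem _ hz₀.2 k, ?_, b j,
      b.ne_zero j, ?_⟩
    · rw [← pow_mul, mul_comm, pow_mul, hz₀p, one_pow]
    · rw [hσ, Subgroup.coe_pow, map_pow, hpow, hk]
  -- the eigenvalues of `z`
  have hdvd : ∀ a : ℂ, a ≠ 1 → p ∣ finrank ℂ (Module.End.eigenspace (ρ (z : G)) a) :=
    fun a ha => dvd_finrank_eigenspace σ hzD hzC hp hzp ha
  have hpos : ∀ (a : ℂ) (v : Fin n → ℂ), v ≠ 0 → ρ (z : G) v = a • v →
      0 < finrank ℂ (Module.End.eigenspace (ρ (z : G)) a) := by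
    intro a v hv hav
    have h1 : Nontrivial (Module.End.eigenspace (ρ (z : G)) a) :=
      ⟨⟨⟨v, Module.End.mem_eigenspace_iff.2 hav⟩, 0, fun h' => hv (congrArg Subtype.val h')⟩⟩
    exact Module.finrank_pos
  obtain ⟨b₁, l₁, hb₁⟩ := exists_eigenbasis ρ (z : G)
  obtain ⟨v, hv, hvw⟩ := hzw
  have hpw : p ≤ finrank ℂ (Module.End.eigenspace (ρ (z : G)) w) :=
    Nat.le_of_dvd (hpos w v hv hvw) (hdvd w hw1)
  have heig : ∀ (a : ℂ) (v : Fin n → ℂ), v ≠ 0 → ρ (z : G) v = a • v → a = 1 ∨ a = w := by
    intro a u hu hau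
    by_contra hcon
    push Not at hcon
    have hpa : p ≤ finrank ℂ (Module.End.eigenspace (ρ (z : G)) a) :=
      Nat.le_of_dvd (hpos a u hu hau) (hdvd a hcon.1)
    rw [finrank_eigen b₁ _ l₁ hb₁] at hpa hpw
    have h1 : Disjoint (Finset.univ.filter (fun j => l₁ j = a))
        (Finset.univ.filter (fun j => l₁ j = w)) := by
      rw [Finset.disjoint_filter]
      intro j _ hj1 hj2
      exact hcon.2 (hj1 ▸ hj2)
    have h2 := Finset.card_union_of_disjoint h1
    have h3 := Finset.card_le_univ (Finset.univ.filter (fun j => l₁ j = a) ∪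
        Finset.univ.filter (fun j => l₁ j = w))
    rw [Fintype.card_fin, h2] at h3
    have h4 : finrank ℂ (Fin n → ℂ) = n := Module.finrank_fin_fun ℂ
    omega
  -- the abelian normal subgroup
  have : Fintype G := Fintype.ofFinite G
  obtain ⟨φ, hinv⟩ := exists_inv ρ
  have hNc := normalClosure_comm hinv hρ (norm_exp_sub_one_lt h7) heig
  set N := Subgroup.normalClosure {(z : G)} with hN
  have hzN : (z : G) ∈ N := Subgroup.subset_normalClosure rfl
  obtain ⟨b', l', hb'⟩ := exists_common_basis (fun x : N => ρ x)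
    (fun x y => by rw [← map_mul, ← map_mul, hNc x x.2 y y.2])
    (fun x => ⟨Nat.card G, Nat.card_pos.ne', by
      rw [← map_pow, pow_card_eq_one', map_one]⟩)
  have e : finrank ℂ (Fin n → ℂ) = n := Module.finrank_fin_fun ℂ
  -- reindex
  let b : Basis (Fin n) ℂ (Fin n → ℂ) := b'.reindex (finCongr e)
  let l : Fin n → N → ℂ := fun j => l' ((finCongr e).symm j)
  have hb : ∀ j (x : N), ρ x (b j) = l j x • b j := by
    intro j x
    simp only [b, l, Basis.reindex_apply]
    exact hb' _ x
  have hcw : (Finset.univ.filter (fun j => l j ⟨z, hzN⟩ = w)).card = p := by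
    have h1 := finrank_eigen b (ρ (z : G)) (fun j => l j ⟨z, hzN⟩) (fun j => hb j ⟨z, hzN⟩) w
    rw [← h1]
    obtain ⟨c, hc⟩ := hdvd w hw1
    have h2 : finrank ℂ (Module.End.eigenspace (ρ (z : G)) w) ≤ n := by
      refine (Submodule.finrank_le _).trans ?_
      rw [e]
    rw [hc] at hpw h2 ⊢
    have h3 : c < 2 := by
      by_contra hc2
      push Not at hc2
      have : p * 2 ≤ p * c := Nat.mul_le_mul_left p hc2
      omega
    have h4 : c ≠ 0 := by
      rintro rfl
      have := hp.pos
      omega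
    have h5 : c = 1 := by omega
    rw [h5, mul_one]
  have hc1 : (Finset.univ.filter (fun j => l j ⟨z, hzN⟩ = 1)).card = n - p := by
    have h1 : Finset.univ.filter (fun j => l j ⟨z, hzN⟩ = 1) =
        (Finset.univ.filter (fun j => l j ⟨z, hzN⟩ = w))ᶜ := by
      ext j
      simp only [Finset.mem_filter, Finset.mem_univ, true_and, Finset.mem_compl]
      constructor
      · intro h h'
        exact hw1 (by rw [← h', h])
      · intro h
        rcases heig _ (b j) (b.ne_zero j) (hb j ⟨z, hzN⟩) with h' | h'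
        · exact h'
        · exact absurd h' h
    rw [h1, Finset.card_compl, Fintype.card_fin, hcw]
  have hpn : p < n := by
    have h1 : p ≤ n := by
      rw [← hcw]
      exact (Finset.card_le_univ _).trans (le_of_eq (Fintype.card_fin n))
    omega
  have hinj : Function.Injective l := by
    intro i j hij
    have hd : (Finset.univ.filter (fun k => l k = l i)).card = 1 := by
      have h1 := mult_dvd hb i (fun μ => μ ⟨z, hzN⟩ = w)
      have h2 := mult_dvd hb i (fun μ => μ ⟨z, hzN⟩ = 1)
      rw [hcw] at h1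
      rw [hc1] at h2
      rcases (Nat.dvd_prime hp).1 h1 with h | h
      · exact h
      · rw [h] at h2
        have := Nat.le_of_dvd (by omega) h2
        omega
    rw [Finset.card_eq_one] at hd
    obtain ⟨k, hk⟩ := hd
    have h1 : i ∈ Finset.univ.filter (fun k => l k = l i) :=
      Finset.mem_filter.2 ⟨Finset.mem_univ _, rfl⟩
    have h2 : j ∈ Finset.univ.filter (fun k => l k = l i) :=
      Finset.mem_filter.2 ⟨Finset.mem_univ _, hij.symm⟩
    rw [hk, Finset.mem_singleton] at h1 h2
    rw [h1, h2]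
  intro hcon
  exact not_sq_dvd_factorial hp hp.two_le hn (index_pCore hρ N b l hb hinj hp hcon)

end main

end Cfsg.Agent.H599.TwoP
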