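import Mathlib
import Cfsg.Prelude.Def_Characters
import Cfsg.Agent.Characters.Core
import Cfsg.Agent.Characters.MonomialNil
import Cfsg.Agent.H599.TwoP

/-!
# Monomial bases for representations of nilpotent groups
-/

set_option autoImplicit false

namespace Cfsg.Agent.H599.Mono

open Module Cfsg Cfsg.Agent.Characters Cfsg.Agent.Characters.Core

universe u v

/-- An irreducible representation with an eigenvector of a subgroup `H` of index at most `dim V`
is monomial in the basis of translates. -/
theorem basis_of_eigenvector {G : Type u} [Group G] [Finite G] {V : Type v} [AddCommGroup V]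
    [Module ℂ V] [FiniteDimensional ℂ V] (ρ : Representation ℂ G V) (hρ : ρ.IsIrreducible)
    (H : Subgroup G) {v : V} (hv : v ≠ 0) (hlam : ∀ h ∈ H, ∃ c : ℂ, ρ h v = c • v)
    (hidx : H.index ≤ finrank ℂ V) :
    ∃ (b : Basis (Fin (finrank ℂ V)) ℂ V), ∀ g i, ∃ (j : _) (c : ℂ), ρ g (b i) = c • b j := by
  classical
  have : Fintype (G ⧸ H) := Fintype.ofFinite _
  let b : G ⧸ H → V := fun q => ρ q.out v
  have hx : ∀ x : G, ∃ c : ℂ, ρ x v = c • b (x : G ⧸ H) := by
    intro x
    have h1 : ((x : G ⧸ H).out)⁻¹ * x ∈ H := by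
      rw [← QuotientGroup.eq, QuotientGroup.out_eq']
    obtain ⟨c, hc⟩ := hlam _ h1
    refine ⟨c, ?_⟩
    show ρ x v = c • ρ (x : G ⧸ H).out v
    rw [← map_smul, ← hc, ← Module.End.mul_apply, ← map_mul, mul_inv_cancel_left]
  have hstep : ∀ g q, ∃ c : ℂ, ρ g (b q) = c • b ((g * q.out : G) : G ⧸ H) := by
    intro g q
    obtain ⟨c, hc⟩ := hx (g * q.out)
    exact ⟨c, by rw [← hc, map_mul, Module.End.mul_apply]⟩
  have hspan : Submodule.span ℂ (Set.range b) = ⊤ := by
    let S : Subrepresentation ρ :=
      { toSubmodule := Submodule.span ℂ (Set.range b)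
        apply_mem_toSubmodule := by
          intro g w hw
          refine Submodule.span_induction (p := fun w _ => ρ g w ∈ Submodule.span ℂ (Set.range b))
            ?_ ?_ ?_ ?_ hw
          · rintro _ ⟨q, rfl⟩
            obtain ⟨c, hc⟩ := hstep g q
            rw [hc]
            exact Submodule.smul_mem _ _ (Submodule.subset_span ⟨_, rfl⟩)
          · simp
          · intro x y _ _ hx hy
            rw [map_add]
            exact Submodule.add_mem _ hx hy
          · intro a x _ hx
            rw [map_smul]
            exact Submodule.smul_mem _ _ hx }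
    have hS : S = ⊥ ∨ S = ⊤ := hρ.eq_bot_or_eq_top S
    rcases hS with hS | hS
    · exfalso
      apply hv
      have hvS : v ∈ S.toSubmodule := by
        obtain ⟨c, hc⟩ := hx 1
        rw [map_one, Module.End.one_apply] at hc
        rw [hc]
        exact Submodule.smul_mem _ _ (Submodule.subset_span ⟨_, rfl⟩)
      rw [hS] at hvS
      exact (Submodule.mem_bot ℂ).mp hvS
    · have := congrArg Subrepresentation.toSubmodule hS
      exact this
  have hcard : Fintype.card (G ⧸ H) = finrank ℂ V := by
    have h1 : finrank ℂ V ≤ Fintype.card (G ⧸ H) := by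
      have := finrank_range_le_card (R := ℂ) b
      rw [Set.finrank, hspan, finrank_top] at this
      exact this
    refine le_antisymm ?_ h1
    rw [← Nat.card_eq_fintype_card]
    exact hidx
  let B : Basis (G ⧸ H) ℂ V := basisOfTopLeSpanOfCardEqFinrank b hspan.ge hcard
  have hB : ∀ q, B q = b q := fun q => by simp [B]
  let e : (G ⧸ H) ≃ Fin (finrank ℂ V) := Fintype.equivFinOfCardEq hcard
  refine ⟨B.reindex e, fun g i => ?_⟩
  obtain ⟨c, hc⟩ := hstep g (e.symm i)
  refine ⟨e ((g * (e.symm i).out : G) : G ⧸ H), c, ?_⟩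
  rw [Basis.reindex_apply, Basis.reindex_apply, hB, hB, e.symm_apply_apply]
  exact hc

/-- Representations of finite nilpotent groups are monomial. -/
theorem exists_mono_basis {G : Type u} [Group G] [Finite G] [Group.IsNilpotent G] {V : Type v}
    [AddCommGroup V] [Module ℂ V] [FiniteDimensional ℂ V] (ρ : Representation ℂ G V) :
    ∃ (ι : Type) (_ : Fintype ι) (b : Basis ι ℂ V), ∀ g i, ∃ (j : ι) (c : ℂ),
      ρ g (b i) = c • b j := by
  classical
  refine rep_induction (G := G)
    (P := fun V _ _ ρ => ∃ (ι : Type) (_ : Fintype ι) (b : Basis ι ℂ V), ∀ g i,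
      ∃ (j : ι) (c : ℂ), ρ g (b i) = c • b j) ?_ ?_ V ρ
  · intro V _ _ ρ hV
    exact ⟨Empty, inferInstance, Basis.empty V, fun g i => i.elim⟩
  · intro V _ _ _ ρ U U' hU hUi ⟨κ, hκ, c, hc⟩
    have hnt : Nontrivial U.toSubmodule := by
      by_contra hc
      rw [not_nontrivial_iff_subsingleton] at hc
      obtain ⟨a, b, hab⟩ := hUi.toNontrivial
      exact hab (Subrepresentation.toSubmodule_injective (Subsingleton.elim _ _))
    obtain ⟨H, v, hv, hH, hidx⟩ :=
      Cfsg.Agent.Characters.MonomialNil.exists_eigenvector_of_nilpotent U.toRepresentation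
    obtain ⟨b, hb⟩ := basis_of_eigenvector U.toRepresentation hUi H hv hH hidx
    refine ⟨Fin (finrank ℂ U.toSubmodule) ⊕ κ, inferInstance,
      (b.prod c).map (Submodule.prodEquivOfIsCompl _ _ hU), ?_⟩
    intro g i
    have hl : ∀ i, ((b.prod c).map (Submodule.prodEquivOfIsCompl _ _ hU)) (Sum.inl i) =
        (b i : V) := by
      intro i
      rw [Basis.map_apply, Basis.prod_apply]
      simp
    have hr : ∀ i, ((b.prod c).map (Submodule.prodEquivOfIsCompl _ _ hU)) (Sum.inr i) =
        (c i : V) := by
      intro i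
      rw [Basis.map_apply, Basis.prod_apply]
      simp
    rcases i with i | i
    · obtain ⟨j, a, h⟩ := hb g i
      refine ⟨Sum.inl j, a, ?_⟩
      rw [hl, hl]
      exact congrArg Subtype.val h
    · obtain ⟨j, a, h⟩ := hc g i
      refine ⟨Sum.inr j, a, ?_⟩
      rw [hr, hr]
      exact congrArg Subtype.val h

/-- A group with a faithful monomial representation has an abelian normal subgroup of index
dividing `n!`. -/
theorem exists_abelian_of_mono {G : Type u} [Group G] {V : Type v} [AddCommGroup V]
    [Module ℂ V] [FiniteDimensional ℂ V] (ρ : Representation ℂ G V) (hρ : Function.Injective ρ)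
    {ι : Type} [Fintype ι] (b : Basis ι ℂ V)
    (hb : ∀ g i, ∃ (j : ι) (c : ℂ), ρ g (b i) = c • b j) :
    ∃ A : Subgroup G, (∀ x ∈ A, ∀ y ∈ A, x * y = y * x) ∧
      A.index ∣ (finrank ℂ V).factorial := by
  classical
  choose π c hπ using hb
  have hc0 : ∀ g i, c g i ≠ 0 := by
    intro g i h0
    have h1 := hπ g i
    rw [h0, zero_smul] at h1
    apply b.ne_zero i
    have : ρ g⁻¹ (ρ g (b i)) = b i := by
      rw [← Module.End.mul_apply, ← map_mul, inv_mul_cancel, map_one, Module.End.one_apply]
    rw [← this, h1, map_zero]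
  have huniq : ∀ g i j (d : ℂ), ρ g (b i) = d • b j → π g i = j := by
    intro g i j d hd
    rw [hπ] at hd
    by_contra hne
    have h1 := congrArg (fun w => b.repr w (π g i)) hd
    simp only [map_smul, Basis.repr_self, Finsupp.smul_apply, Finsupp.single_eq_same,
      smul_eq_mul, mul_one] at h1
    rw [Finsupp.single_eq_of_ne hne, mul_zero] at h1
    exact hc0 g i h1
  have h1 : ∀ i, π 1 i = i := fun i => huniq 1 i i 1 (by
    rw [map_one, Module.End.one_apply, one_smul])
  have hmul : ∀ g h i, π (g * h) i = π g (π h i) := by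
    intro g h i
    apply huniq (g * h) i _ (c h i * c g (π h i))
    rw [map_mul, Module.End.mul_apply, hπ h i, map_smul, hπ g, smul_smul]
  let θ : G →* Equiv.Perm ι :=
    { toFun := fun g =>
        { toFun := π g
          invFun := π g⁻¹
          left_inv := fun i => by rw [← hmul, inv_mul_cancel, h1]
          right_inv := fun i => by rw [← hmul, mul_inv_cancel, h1] }
      map_one' := Equiv.ext fun i => h1 i
      map_mul' := fun g h => Equiv.ext fun i => hmul g h i }
  refine ⟨θ.ker, ?_, ?_⟩
  · intro x hx y hy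
    have hx' : ∀ i, π x i = i := fun i => congrArg (fun e : Equiv.Perm ι => e i)
      (MonoidHom.mem_ker.1 hx)
    have hy' : ∀ i, π y i = i := fun i => congrArg (fun e : Equiv.Perm ι => e i)
      (MonoidHom.mem_ker.1 hy)
    apply hρ
    rw [map_mul, map_mul]
    refine b.ext fun i => ?_
    rw [Module.End.mul_apply, Module.End.mul_apply, hπ x i, hπ y i, map_smul, map_smul, hx' i,
      hy' i, hπ x i, hπ y i, hx' i, hy' i, smul_comm]
  · rw [Subgroup.index_ker]
    refine (Subgroup.card_subgroup_dvd_card θ.range).trans ?_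
    rw [Nat.card_perm, Nat.card_eq_fintype_card, ← Module.finrank_eq_card_basis b]

end Cfsg.Agent.H599.Mono
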